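import Cfsg.Agent.Chars.LinearGroup.Jordan
import Mathlib.Analysis.SpecialFunctions.Trigonometric.Bounds
import Mathlib.Analysis.Real.Pi.Bounds

/-!
# An element with two eigenvalues one step of the `p`-gon apart

If the trace of `w ^ j` is `a + b * μ ^ (2 * j)` with `μ = exp (π i / p)` and `p ≥ 7`, then the
conjugates of `w` commute pairwise (Blichfeldt).
-/

set_option autoImplicit false

namespace CfsgLib.DegreeLtTwoP

open CfsgLib.LinearGroup
open scoped ComplexConjugate ComplexOrder Matrix.Norms.L2Operator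

variable {G : Type*} [Group G] [Finite G] {n : ℕ}

/-- `exp (π i / p)`. -/
noncomputable def halfRoot (p : ℕ) : ℂ := Complex.exp ((Real.pi / p : ℝ) * Complex.I)

theorem halfRoot_sq (p : ℕ) :
    halfRoot p * halfRoot p = Complex.exp (2 * Real.pi * Complex.I / p) := by
  rw [halfRoot, ← Complex.exp_add]
  congr 1
  push_cast
  ring

theorem halfRoot_ne_zero (p : ℕ) : halfRoot p ≠ 0 := Complex.exp_ne_zero _

theorem conj_halfRoot (p : ℕ) : conj (halfRoot p) = (halfRoot p)⁻¹ := by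
  rw [halfRoot, ← Complex.exp_conj, ← Complex.exp_neg, map_mul, Complex.conj_ofReal,
    Complex.conj_I, mul_neg]

/-- The sum of `μ` and its inverse. -/
theorem halfRoot_add_inv (p : ℕ) :
    halfRoot p + (halfRoot p)⁻¹ = ((2 * Real.cos (Real.pi / p) : ℝ) : ℂ) := by
  rw [halfRoot, ← Complex.exp_neg, ← neg_mul, ← Complex.two_cos, Complex.ofReal_mul,
    Complex.ofReal_cos]
  norm_num

theorem two_sub_lt {p : ℕ} (hp : 7 ≤ p) : 2 - 2 * Real.cos (Real.pi / p) < 1 / 4 := by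
  have h1 := Real.one_sub_sq_div_two_le_cos (x := Real.pi / p)
  have h7 : (7 : ℝ) ≤ p := by exact_mod_cast hp
  have h2 : Real.pi / p ≤ 3.15 / 7 := by
    gcongr
    exact Real.pi_lt_d2.le
  have h3 : 0 ≤ Real.pi / p := by positivity
  nlinarith [mul_le_mul h2 h2 h3 (by norm_num)]

theorem two_sub_nonneg (p : ℕ) : 0 ≤ 2 - 2 * Real.cos (Real.pi / p) := by
  linarith [Real.cos_le_one (Real.pi / p)]

theorem commute_conj_of_trace [NeZero n] {Y : G →* Matrix (Fin n) (Fin n) ℂ} (hY : UnitaryHom Y)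
    (hinj : Function.Injective Y) {p : ℕ} (hp : 7 ≤ p) {w : G} {a b : ℂ}
    (hval : ∀ j : ℤ, (Y (w ^ j)).trace = a + b * (halfRoot p * halfRoot p) ^ j) (x y : G) :
    Commute (x * w * x⁻¹) (y * w * y⁻¹) := by
  haveI : Nonempty (Fin n) := ⟨⟨0, Nat.pos_of_ne_zero (NeZero.ne n)⟩⟩
  set μ := halfRoot p with hμ
  have hμ0 : μ ≠ 0 := halfRoot_ne_zero p
  set s : ℂ := μ + μ⁻¹ with hs
  have hsr : conj s = s := by rw [hs, halfRoot_add_inv, Complex.conj_ofReal]
  set E := μ • Y w⁻¹ + μ⁻¹ • Y w - s • 1 with hE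
  have hstar : star E = E := by
    rw [hE, star_sub, star_add, star_smul, star_smul, star_smul, hY.star_eq, hY.star_eq, inv_inv,
      star_one, Complex.star_def, map_inv₀, hμ, conj_halfRoot, ← hμ,
      inv_inv, hsr, add_comm (μ⁻¹ • Y w)]
  have hEE : E * E = (μ * μ) • Y (w ^ (-2 : ℤ)) + (μ⁻¹ * μ⁻¹) • Y (w ^ (2 : ℤ))
      + (2 + s * s) • Y (w ^ (0 : ℤ))
      - (2 * s * μ) • Y (w ^ (-1 : ℤ)) - (2 * s * μ⁻¹) • Y (w ^ (1 : ℤ)) := by
    have e1 : Y w⁻¹ * Y w = 1 := by rw [← map_mul, inv_mul_cancel, map_one]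
    have e2 : Y w * Y w⁻¹ = 1 := by rw [← map_mul, mul_inv_cancel, map_one]
    have e3 : Y (w ^ (-2 : ℤ)) = Y w⁻¹ * Y w⁻¹ := by
      rw [← map_mul, zpow_neg, zpow_two, mul_inv_rev]
    have e4 : Y (w ^ (2 : ℤ)) = Y w * Y w := by rw [← map_mul, zpow_two]
    rw [e3, e4, zpow_neg_one, zpow_one, zpow_zero, map_one, hE]
    simp only [mul_add, add_mul, sub_mul, mul_sub, smul_mul_smul_comm, e1, e2, one_mul, mul_one,
      mul_inv_cancel₀ hμ0, inv_mul_cancel₀ hμ0]
    module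
  have htr : (E * E).trace = 0 := by
    rw [hEE]
    simp only [Matrix.trace_sub, Matrix.trace_add, Matrix.trace_smul, hval, smul_eq_mul]
    simp only [zpow_neg, zpow_zero, zpow_one, zpow_two, hs]
    field_simp
    ring
  have hE0 : E = 0 := by
    rw [← Matrix.trace_conjTranspose_mul_self_eq_zero_iff, ← Matrix.star_eq_conjTranspose, hstar,
      htr]
  have hd : star (Y w - μ • 1) * (Y w - μ • 1) = (2 - s) • 1 := by
    have e1 : Y w⁻¹ * Y w = 1 := by rw [← map_mul, inv_mul_cancel, map_one]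
    have hEs : μ • Y w⁻¹ + μ⁻¹ • Y w = s • 1 := sub_eq_zero.1 hE0
    rw [star_sub, star_smul, hY.star_eq, star_one, Complex.star_def, hμ, conj_halfRoot, ← hμ]
    simp only [sub_mul, mul_sub, smul_mul_assoc, mul_smul_comm, one_mul, mul_one, e1]
    rw [sub_smul, ← hEs]
    match_scalars <;> field_simp <;> ring
  have hnorm : ‖(2 : ℂ) - s‖ < 1 / 4 := by
    rw [hs, halfRoot_add_inv, show (2 : ℂ) - ((2 * Real.cos (Real.pi / p) : ℝ) : ℂ) =
      ((2 - 2 * Real.cos (Real.pi / p) : ℝ) : ℂ) by push_cast; ring, Complex.norm_real,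
      Real.norm_eq_abs, abs_of_nonneg (two_sub_nonneg p)]
    exact two_sub_lt hp
  have hw : ‖Y w - μ • 1‖ < 1 / 2 := by
    have h := CStarRing.norm_star_mul_self (x := Y w - μ • 1)
    rw [hd, norm_smul, CStarRing.norm_one, mul_one] at h
    nlinarith [norm_nonneg (Y w - μ • 1)]
  have hμ1 : ‖μ - 1‖ < 1 / 2 := by
    have h : ‖μ - 1‖ * ‖μ - 1‖ = ‖(2 : ℂ) - s‖ := by
      conv_lhs => arg 1; rw [← Complex.norm_conj]
      rw [← norm_mul, map_sub, map_one, hμ, conj_halfRoot, ← hμ]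
      congr 1
      rw [hs]
      field_simp
      ring
    nlinarith [norm_nonneg (μ - 1)]
  have hconj : ∀ z : G, ‖Y (z * w * z⁻¹) - μ • 1‖ < 1 / 2 := by
    intro z
    have e : Y (z * w * z⁻¹) - μ • 1 = Y z * (Y w - μ • 1) * Y z⁻¹ := by
      simp only [map_mul, mul_sub, sub_mul, mul_smul_comm, smul_mul_assoc, mul_one]
      rw [← map_mul Y z z⁻¹, mul_inv_cancel, map_one]
    rwa [e, hY.norm_conj]
  refine hY.commute_of_near hinj (hconj x) ?_
  calc ‖Y (y * w * y⁻¹) - 1‖ = ‖(Y (y * w * y⁻¹) - μ • 1) + (μ • 1 - 1)‖ := by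
        rw [sub_add_sub_cancel]
    _ ≤ ‖Y (y * w * y⁻¹) - μ • 1‖ + ‖μ • (1 : Matrix (Fin n) (Fin n) ℂ) - 1‖ := norm_add_le _ _
    _ = ‖Y (y * w * y⁻¹) - μ • 1‖ + ‖μ - 1‖ := by
        rw [show μ • (1 : Matrix (Fin n) (Fin n) ℂ) - 1 = (μ - 1) • 1 by rw [sub_smul, one_smul],
          norm_smul, CStarRing.norm_one, mul_one]
    _ < 1 := by linarith [hconj y]

end CfsgLib.DegreeLtTwoP
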