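import Cfsg.Agent.Chars.DegreeLtTwoPrime.Arc
import Cfsg.Agent.Chars.Induced.Clifford
import Cfsg.Agent.Chars.Basic.ClassSum
import Cfsg.Agent.PGroup.Normal
import Cfsg.Agent.Constrained.Basic
import Mathlib.GroupTheory.IndexNormal

/-!
# Linear groups of degree less than `2 p`

If `p ≥ 7` and `G` has a faithful irreducible character of degree `n < 2 p`, `n ≠ p`, and
nonabelian Sylow `p`-subgroups, then `p ^ 2` does not divide `|G : O_p(G)|`.
-/

set_option autoImplicit false
set_option linter.style.haveILetI false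

namespace CfsgLib.DegreeLtTwoP

open Cfsg CfsgLib.Chars CfsgLib.Chars.Induced
open scoped ComplexConjugate commutatorElement

universe u v

variable {G : Type u} [Group G]

/-- A homomorphism into the centre sees an irreducible character as a multiple of a linear one. -/
theorem exists_mult_eq_degree {K : Type v} [Group K] [Fintype K] {N : Type u} [Group N] [Fintype N]
    (f : N →* K) (hf : ∀ a, f a ∈ Subgroup.center K) (φ : IrrCharacter K) :
    ∃ η : IrrCharacter N,
      mult (fun a => (φ : K → ℂ) (f a)) η = charDegree (φ : K → ℂ) := by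
  classical
  have h1 := map_one_ne_zero φ
  have key : ∀ a b : N, (φ : K → ℂ) (f (a * b)) / (φ : K → ℂ) 1 =
      (φ : K → ℂ) (f a) / (φ : K → ℂ) 1 * ((φ : K → ℂ) (f b) / (φ : K → ℂ) 1) := fun a b => by
    rw [map_mul, map_mul_of_mem_center φ (hf a) (f b), mul_div_assoc]
  let l : N →* ℂˣ := MonoidHom.toHomUnits
    { toFun := fun a => (φ : K → ℂ) (f a) / (φ : K → ℂ) 1
      map_one' := by rw [map_one, div_self h1]
      map_mul' := key }
  refine ⟨linChar l, ?_⟩
  have e : (fun a => (φ : K → ℂ) (f a)) =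
      (charDegree (φ : K → ℂ) : ℂ) • (linChar l : N → ℂ) := by
    funext a
    rw [Pi.smul_apply, linChar_apply, smul_eq_mul, coe_charDegree]
    show _ = _ * ((φ : K → ℂ) (f a) / (φ : K → ℂ) 1)
    rw [mul_div_cancel₀ _ h1]
  rw [mult, e, Induced.classInner_smul_left, classInner_irr_self, mul_one]
  simp

/-- The restriction to a nonabelian Sylow subgroup. -/
theorem exists_constituent_degree_prime [Fintype G] {p : ℕ} (hp : p.Prime) {χ : IrrCharacter G}
    (hfaith : ∀ g : G, (χ : G → ℂ) g = (χ : G → ℂ) 1 → g = 1) {n : ℕ}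
    (hn : charDegree (χ : G → ℂ) = n) (hn2 : n < 2 * p) (hnp : n ≠ p) (P : Subgroup G) [Fintype P]
    (hP : IsPGroup p P) (hna : commutator P ≠ ⊥) :
    p < n ∧ ∃ ψ : IrrCharacter P, charDegree (ψ : P → ℂ) = p ∧
      mult (fun h : P => (χ : G → ℂ) h) ψ = 1 ∧
      ∀ x ∈ commutator P, (χ : G → ℂ) (x : G) = (n : ℂ) - p + (ψ : P → ℂ) x := by
  classical
  haveI := Fact.mk hp
  have hres : IsCharacter P (fun h : P => (χ : G → ℂ) h) :=
    isCharacter_restrict (isCharacter_coe χ) P
  obtain ⟨s, hmem, hs⟩ := exists_eq_sum_mult hres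
  set M := fun η : IrrCharacter P => mult (fun h : P => (χ : G → ℂ) h) η with hM
  have hsum : n = ∑ η ∈ s, M η * charDegree (η : P → ℂ) := by
    have h1 := congrFun hs 1
    simp only [Finset.sum_apply, Pi.smul_apply, smul_eq_mul, OneMemClass.coe_one,
      ← coe_charDegree, hn] at h1
    exact_mod_cast h1
  have hlin : ∀ η : IrrCharacter P, charDegree (η : P → ℂ) = 1 →
      ∀ x ∈ commutator P, (η : P → ℂ) x = 1 := fun η hη x hx => by
    have h1 := (charDegree_eq_one_iff η).mp hη
    obtain ⟨l, rfl⟩ := exists_linChar_eq η h1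
    rw [linChar_apply, MonoidHom.mem_ker.1 (Abelianization.commutator_subset_ker l hx),
      Units.val_one]
  obtain ⟨x, hx, hx1⟩ := (Subgroup.ne_bot_iff_exists_ne_one (H := commutator P)).1 hna |>.elim
    fun x hx1 => (⟨x.1, x.2, fun h => hx1 (Subtype.ext h)⟩ : ∃ x ∈ commutator P, x ≠ 1)
  obtain ⟨ψ, hψs, hψ⟩ : ∃ ψ ∈ s, charDegree (ψ : P → ℂ) ≠ 1 := by
    by_contra! hall
    refine hx1 (Subtype.ext (hfaith _ ?_))
    have e1 := congrFun hs x
    have e2 := congrFun hs 1
    simp only [Finset.sum_apply, Pi.smul_apply, smul_eq_mul, OneMemClass.coe_one] at e1 e2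
    rw [e1, e2]
    exact Finset.sum_congr rfl fun η hη => by
      rw [hlin η (hall η hη) x hx, ← coe_charDegree, hall η hη, Nat.cast_one]
  obtain ⟨k, hk⟩ := IsPGroup.iff_card.1 hP
  have hpow : ∀ η : IrrCharacter P, charDegree (η : P → ℂ) ≠ 1 → p ∣ charDegree (η : P → ℂ) :=
    fun η hη => by
      obtain ⟨j, -, hj⟩ := (Nat.dvd_prime_pow hp).1 (hk ▸ charDegree_dvd_card η)
      rcases j with _ | j
      · exact absurd (by simpa using hj) hη
      · exact hj ▸ dvd_pow_self p (Nat.succ_ne_zero j)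
  have hψge : p ≤ charDegree (ψ : P → ℂ) := Nat.le_of_dvd (charDegree_pos ψ) (hpow ψ hψ)
  have hMψ : 1 ≤ M ψ := Nat.one_le_iff_ne_zero.2 ((hmem ψ).1 hψs)
  rw [← Finset.add_sum_erase s _ hψs] at hsum
  have hdeg : charDegree (ψ : P → ℂ) = p := by
    obtain ⟨d, hd⟩ := hpow ψ hψ
    have h2 : p * d < p * 2 := by
      have := Nat.le_mul_of_pos_left (charDegree (ψ : P → ℂ)) hMψ
      omega
    have hd2 : d < 2 := Nat.lt_of_mul_lt_mul_left h2
    have hd0 : d ≠ 0 := by
      rintro rfl
      exact (charDegree_pos ψ).ne' (by simpa using hd)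
    rw [hd, show d = 1 by omega, mul_one]
  have hM1 : M ψ = 1 := by
    rw [hdeg] at hsum
    have h2 : M ψ * p < 2 * p := by omega
    have := Nat.lt_of_mul_lt_mul_right h2
    omega
  have hoth : ∀ η ∈ s.erase ψ, charDegree (η : P → ℂ) = 1 := by
    intro η hη
    by_contra h
    have h1 : p ≤ charDegree (η : P → ℂ) := Nat.le_of_dvd (charDegree_pos η) (hpow η h)
    have h2 : 1 ≤ M η := Nat.one_le_iff_ne_zero.2 ((hmem η).1 (Finset.mem_erase.1 hη).2)
    have h3 := Finset.single_le_sum
      (f := fun η => M η * charDegree (η : P → ℂ)) (fun _ _ => Nat.zero_le _) hη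
    have h4 := Nat.le_mul_of_pos_left (charDegree (η : P → ℂ)) h2
    rw [hM1, hdeg] at hsum
    omega
  rw [hM1, hdeg, one_mul] at hsum
  refine ⟨by omega, ψ, hdeg, hM1, fun y hy => ?_⟩
  have e1 := congrFun hs y
  simp only [Finset.sum_apply, Pi.smul_apply, smul_eq_mul] at e1
  rw [e1, ← Finset.add_sum_erase s _ hψs]
  have e2 : ((n : ℂ) - p) = ∑ η ∈ s.erase ψ, (M η : ℂ) * (η : P → ℂ) y := by
    rw [hsum]
    push_cast
    rw [add_sub_cancel_left]
    exact Finset.sum_congr rfl fun η hη => by
      rw [hlin η (hoth η hη) y hy, hoth η hη, Nat.cast_one]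
  rw [e2, show mult (fun h : P => (χ : G → ℂ) h) ψ = 1 from hM1]
  push_cast
  ring

/-- A central element of order `p` in the derived group. -/
theorem exists_central_mem_commutator {P : Type*} [Group P] [Finite P] {p : ℕ} (hp : p.Prime)
    (hP : IsPGroup p P) (hna : commutator P ≠ ⊥) :
    ∃ z : P, z ∈ commutator P ∧ z ∈ Subgroup.center P ∧ orderOf z = p := by
  haveI := Fact.mk hp
  have hne := CfsgLib.PGroup.inf_center_ne_bot hP (commutator P) hna
  have hdvd : p ∣ Nat.card (commutator P ⊓ Subgroup.center P : Subgroup P) := by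
    obtain ⟨k, hk⟩ := IsPGroup.iff_card.1 (hP.to_subgroup (commutator P ⊓ Subgroup.center P))
    rcases k with _ | k
    · exact absurd (Subgroup.eq_bot_of_card_eq _ (by simpa using hk)) hne
    · exact hk ▸ dvd_pow_self p (Nat.succ_ne_zero k)
  obtain ⟨z, hz⟩ := exists_prime_orderOf_dvd_card' p hdvd
  exact ⟨z.1, (Subgroup.mem_inf.1 z.2).1, (Subgroup.mem_inf.1 z.2).2,
    (Subgroup.orderOf_coe z).trans hz⟩

/-- A complex number on the unit circle other than `1` moves a convex combination inside. -/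
theorem normSq_ne {a b : ℝ} (ha : 0 < a) (hb : 0 < b) {z : ℂ} (hz : ‖z‖ = 1) (hz1 : z ≠ 1) :
    ‖(a : ℂ) + b * z‖ ≠ a + b := by
  intro h
  have h1 := congrArg (fun r : ℝ => r ^ 2) h
  have h2 : z.re * z.re + z.im * z.im = 1 := by
    rw [← Complex.normSq_apply, Complex.normSq_eq_norm_sq, hz, one_pow]
  simp only [← Complex.normSq_eq_norm_sq, Complex.normSq_apply, Complex.add_re, Complex.mul_re,
    Complex.add_im, Complex.mul_im, Complex.ofReal_re, Complex.ofReal_im] at h1
  ring_nf at h1
  have h3 : z.re = 1 := by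
    have : a * b * (z.re - 1) = 0 := by nlinarith [congrArg (fun r => b * b * r) h2]
    rcases mul_eq_zero.1 this with h4 | h4
    · exact absurd h4 (mul_pos ha hb).ne'
    · linarith
  exact hz1 (Complex.ext (by simpa using h3) (by simp; nlinarith))

/-- Squares of primes in factorials below `(2 p)!`. -/
theorem not_sq_dvd_factorial {p t : ℕ} (hp : p.Prime) (ht : t < 2 * p) :
    ¬ p ^ 2 ∣ t.factorial := by
  intro h
  have hb : Nat.log p t < 2 :=
    Nat.log_lt_of_lt_pow' (by norm_num)
      (lt_of_lt_of_le ht (by rw [pow_two]; exact Nat.mul_le_mul_right p hp.two_le))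
  have h2 := (hp.pow_dvd_factorial_iff hb).1 h
  rw [Nat.Ico_succ_singleton, Finset.sum_singleton, pow_one] at h2
  have : t / p < 2 := Nat.div_lt_of_lt_mul (by omega)
  omega

theorem not_sq_dvd_index_pCore [Finite G] {p : ℕ} (hp : p.Prime) (h7 : 7 ≤ p)
    {χ : IrrCharacter G} (hfaith : ∀ g : G, (χ : G → ℂ) g = (χ : G → ℂ) 1 → g = 1) {n : ℕ}
    (hn : charDegree (χ : G → ℂ) = n) (hn2 : n < 2 * p) (hnp : n ≠ p) (S : Sylow p G)
    (hna : ∃ x ∈ (S : Subgroup G), ∃ y ∈ (S : Subgroup G), x * y ≠ y * x) :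
    ¬ p ^ 2 ∣ (pCore p G).index := by
  classical
  haveI := Fact.mk hp
  haveI := Fintype.ofFinite G
  haveI : Fintype (S : Subgroup G) := Fintype.ofFinite _
  have hnaP : commutator (S : Subgroup G) ≠ ⊥ := by
    obtain ⟨x, hx, y, hy, hxy⟩ := hna
    intro h
    have := (Subgroup.eq_bot_iff_forall _).1 h ⁅(⟨x, hx⟩ : (S : Subgroup G)), ⟨y, hy⟩⁆
      (Subgroup.commutator_mem_commutator (Subgroup.mem_top _) (Subgroup.mem_top _))
    exact hxy (congrArg Subtype.val (commutatorElement_eq_one_iff_mul_comm.1 this))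
  obtain ⟨hpn, ψ, hψd, hψm, hψval⟩ :=
    exists_constituent_degree_prime hp hfaith hn hn2 hnp (S : Subgroup G) S.isPGroup' hnaP
  have hnC : (χ : G → ℂ) 1 = n := by rw [← coe_charDegree, hn]
  have hψ1 : (ψ : ↥(S : Subgroup G) → ℂ) 1 = p := by rw [← coe_charDegree, hψd]
  have hpC : (p : ℂ) ≠ 0 := Nat.cast_ne_zero.2 hp.ne_zero
  obtain ⟨z, hzc, hzZ, hzo⟩ := exists_central_mem_commutator hp S.isPGroup' hnaP
  obtain ⟨c, hc⟩ := exists_scalar_of_mem_center ψ hzZ
  have hcpow : ∀ j : ℕ, (ψ : ↥(S : Subgroup G) → ℂ) (z ^ j) = c ^ j * p := by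
    intro j
    induction j with
    | zero => simpa using hψ1
    | succ j ih => rw [pow_succ' z, hc, ih, pow_succ' c, mul_assoc]
  have hcp : c ^ p = 1 := by
    have := hcpow p
    rw [show z ^ p = 1 by rw [← orderOf_dvd_iff_pow_eq_one, hzo], hψ1] at this
    exact mul_right_cancel₀ hpC (by rw [one_mul, ← this])
  have hc1 : c ≠ 1 := by
    intro hc1
    have h := hψval z hzc
    have e := hcpow 1
    rw [pow_one, pow_one, hc1, one_mul] at e
    rw [e, sub_add_cancel, ← hnC] at h
    have hz1 : z = 1 := Subtype.ext (hfaith _ h)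
    rw [hz1, orderOf_one] at hzo
    exact hp.ne_one hzo.symm
  have hprim : IsPrimitiveRoot c p := by
    have ho : orderOf c = p := orderOf_eq_prime hcp hc1
    exact ho ▸ IsPrimitiveRoot.orderOf c
  obtain ⟨k, -, hk⟩ := hprim.eq_pow_of_pow_eq_one
    (ξ := halfRoot p * halfRoot p) (by
      rw [halfRoot_sq, ← Complex.exp_nat_mul, mul_div_cancel₀ _ hpC, Complex.exp_two_pi_mul_I])
  set ω := halfRoot p * halfRoot p with hω
  have hω1 : ω ≠ 1 := by
    rw [hω, halfRoot_sq]
    exact (Complex.isPrimitiveRoot_exp p hp.ne_zero).ne_one hp.one_lt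
  have hωp : ω ^ p = 1 := by rw [← hk, ← pow_mul, mul_comm, pow_mul, hcp, one_pow]
  set w : G := ((z ^ k : (S : Subgroup G)) : G) with hw
  have hwp : w ^ p = 1 := by
    have hzp : z ^ p = 1 := by rw [← orderOf_dvd_iff_pow_eq_one, hzo]
    rw [hw, ← SubmonoidClass.coe_pow, ← pow_mul, mul_comm, pow_mul, hzp,
      one_pow, OneMemClass.coe_one]
  have hval : ∀ j : ℤ, (χ : G → ℂ) (w ^ j) = ((n : ℂ) - p) + p * ω ^ j := by
    intro j
    have hp0 : (p : ℤ) ≠ 0 := by exact_mod_cast hp.ne_zero
    obtain ⟨i, hi⟩ := Int.eq_ofNat_of_zero_le (Int.emod_nonneg j hp0)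
    have h1 : w ^ j = w ^ i := by
      rw [← zpow_natCast, ← hi, ← Int.emod_add_mul_ediv j p, zpow_add, zpow_mul, zpow_natCast,
        hwp, one_zpow, mul_one]
      simp
    have h2 : ω ^ j = ω ^ i := by
      have hω0 : ω ≠ 0 := mul_ne_zero (halfRoot_ne_zero p) (halfRoot_ne_zero p)
      rw [← zpow_natCast, ← hi, ← Int.emod_add_mul_ediv j p, zpow_add₀ hω0, zpow_mul,
        zpow_natCast, hωp, one_zpow, mul_one]
      simp
    rw [h1, h2, hw, ← SubmonoidClass.coe_pow, ← pow_mul,
      hψval _ (pow_mem hzc _), hcpow, ← hk, ← pow_mul, mul_comm (c ^ (k * i))]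
  obtain ⟨n0, ρ, -, hρ⟩ := χ.2
  obtain ⟨Y, hY, htr⟩ := LinearGroup.exists_unitaryHom ρ
  have htr' : ∀ g, (Y g).trace = (χ : G → ℂ) g := fun g => by rw [htr g, ← hρ]
  haveI : NeZero n0 := ⟨by
    rintro rfl
    exact map_one_ne_zero χ (by rw [← htr' 1]; simp [Matrix.trace])⟩
  have hinj : Function.Injective Y := by
    rw [injective_iff_map_eq_one]
    intro g hg
    exact hfaith g (by rw [← htr' g, ← htr' 1, hg, map_one])
  have hcomm : ∀ x y : G, Commute (x * w * x⁻¹) (y * w * y⁻¹) := fun x y =>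
    commute_conj_of_trace hY hinj h7 (w := w) (a := (n : ℂ) - p) (b := (p : ℂ))
      (fun j => by rw [htr', hval j]) x y
  set N := Subgroup.normalClosure ({w} : Set G) with hN
  have hconjform : ∀ a ∈ Group.conjugatesOfSet ({w} : Set G), ∃ x : G, x * w * x⁻¹ = a := by
    intro a ha
    obtain ⟨b, hb, hba⟩ := Group.mem_conjugatesOfSet_iff.1 ha
    rw [Set.mem_singleton_iff] at hb
    subst hb
    exact isConj_iff.1 hba
  haveI hNc : IsMulCommutative N := Subgroup.isMulCommutative_closure fun a ha b hb => by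
    obtain ⟨x, rfl⟩ := hconjform a ha
    obtain ⟨y, rfl⟩ := hconjform b hb
    exact hcomm x y
  have hNexp : ∀ a : G, a ∈ N → a ^ p = 1 := by
    intro a ha
    induction ha using Subgroup.closure_induction with
    | mem x hx =>
      obtain ⟨y, rfl⟩ := hconjform x hx
      rw [conj_pow, hwp, mul_one, mul_inv_cancel]
    | one => exact one_pow p
    | mul x y hx hy h1 h2 =>
      have : Commute x y := congrArg Subtype.val (mul_comm' (⟨x, hx⟩ : N) ⟨y, hy⟩)
      rw [this.mul_pow, h1, h2, one_mul]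
    | inv x hx h1 => rw [inv_pow, h1, inv_one]
  have hNp : IsPGroup p N := fun a => ⟨1, Subtype.ext (by simpa using hNexp a a.2)⟩
  have hNS : N ≤ (S : Subgroup G) := hNp.le_sylow_of_normal S
  have hwN : w ∈ N := Subgroup.subset_normalClosure (Set.mem_singleton w)
  haveI : Fintype N := Fintype.ofFinite N
  have hresN : IsCharacter N (fun a : N => (χ : G → ℂ) a) :=
    isCharacter_restrict (isCharacter_coe χ) N
  obtain ⟨θ, hθ⟩ := exists_mult_ne_zero hresN (fun h => by
    have := congrFun h 1
    simp only [OneMemClass.coe_one, hnC, Pi.zero_apply] at this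
    have : n = 0 := by exact_mod_cast this
    omega)
  have hlinN : ∀ η : IrrCharacter N, (η : N → ℂ) 1 = 1 :=
    fun η => map_one_eq_one_of_isMulCommutative η
  set T := inertia N (θ : N → ℂ) with hT
  set m := mult (fun a : N => (χ : G → ℂ) a) θ with hm
  have hnmt : n = m * T.index := by
    have := clifford_one χ θ hθ
    rw [hnC, hlinN θ, mul_one] at this
    exact_mod_cast this
  have horbit : ∀ η : IrrCharacter N, mult (fun a : N => (χ : G → ℂ) a) η ≠ 0 →
      mult (fun a : N => (χ : G → ℂ) a) η = m := fun η hη => by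
    obtain ⟨x, rfl⟩ := mem_conjOrbit_of_mult_ne_zero χ θ η hθ hη
    exact mult_restrict_conjIrr (isClassFunction_coe χ) x θ
  have hm0 : 1 ≤ m := Nat.one_le_iff_ne_zero.2 hθ
  set D := T.normalCore with hD
  have hND : N ≤ D := Subgroup.normal_le_normalCore.2 (le_inertia (isClassFunction_coe θ))
  have hDfac : D.index ∣ T.index.factorial := by
    rw [hD, Subgroup.normalCore_eq_ker, Subgroup.index_ker, Subgroup.index_eq_card,
      ← Nat.card_perm]
    exact Subgroup.card_subgroup_dvd_card _
  have hcentral : ∀ d ∈ D, ∀ a : G, a ∈ N → d * a = a * d := by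
    intro d hd a ha
    have hmem : d * a * d⁻¹ ∈ N :=
      (Subgroup.normalClosure_normal (s := ({w} : Set G))).conj_mem a ha d
    set a' : N := ⟨a, ha⟩
    set b' : N := ⟨d * a * d⁻¹, hmem⟩ with hb'
    have heta : ∀ η ∈ (Set.finite_range fun x : G => conjIrr x θ).toFinset,
        (η : N → ℂ) (b' * a'⁻¹) = 1 := by
      intro η hη
      obtain ⟨x, rfl⟩ := (Set.Finite.mem_toFinset _).1 hη
      have hdx : d ∈ inertia N (conjIrr x θ : N → ℂ) := by
        have hdT : x⁻¹ * d * x ∈ T := by
          have h := (Subgroup.normalCore_normal T).conj_mem d hd x⁻¹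
          rw [inv_inv] at h
          exact Subgroup.normalCore_le T h
        rw [mem_inertia, conjIrr_coe]
        rw [← conjFun_mul, conjFun_eq_conjFun_iff, ← mul_assoc]
        exact hdT
      obtain ⟨l, hl⟩ := exists_linChar_eq (conjIrr x θ) (hlinN _)
      have he := (mem_inertia_iff_forall.1 hdx) a' b' rfl
      dsimp only at he ⊢
      rw [← hl, linChar_apply, linChar_apply] at he
      rw [← hl, linChar_apply, map_mul, Units.val_mul, he, map_inv, Units.mul_inv]
    have h1 := congrFun (clifford χ θ hθ) (b' * a'⁻¹)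
    have h0 := congrFun (clifford χ θ hθ) 1
    simp only [Pi.smul_apply, Finset.sum_apply, smul_eq_mul] at h1 h0
    have h2 : (χ : G → ℂ) ((b' * a'⁻¹ : N) : G) = (χ : G → ℂ) ((1 : N) : G) := by
      rw [h1, h0]
      congr 1
      exact Finset.sum_congr rfl fun η hη => by rw [heta η hη, hlinN η]
    have h3 := hfaith _ (by rw [h2, OneMemClass.coe_one])
    simp only [hb', a', Subgroup.coe_mul, Subgroup.coe_inv, mul_inv_eq_one] at h3
    rw [mul_inv_eq_iff_eq_mul] at h3
    exact h3
  by_cases hSD : (S : Subgroup G) ≤ D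
  · -- the Sylow subgroup centralises `N`, so the multiplicity is at least `p`
    exfalso
    obtain ⟨η, hη⟩ := exists_mult_eq_degree (Subgroup.inclusion hNS) (fun a => by
      rw [Subgroup.mem_center_iff]
      exact fun g => Subtype.ext (hcentral g (hSD g.2) a a.2)) ψ
    have h1 := mult_mul_mult_le_restrict (Subgroup.inclusion hNS)
      (isCharacter_restrict (isCharacter_coe χ) (S : Subgroup G)) ψ η
    rw [hη, hψm, hψd, one_mul] at h1
    change p ≤ mult (fun a : N => (χ : G → ℂ) a) η at h1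
    rw [horbit η (by omega)] at h1
    have ht : 2 ≤ T.index := by
      by_contra ht
      have ht1 : T.index = 1 := by
        have := T.index_ne_zero_of_finite
        omega
      have hsingle : (Set.finite_range fun x : G => conjIrr x θ).toFinset = {θ} := by
        ext η
        simp only [Set.Finite.mem_toFinset, Set.mem_range, Finset.mem_singleton]
        constructor
        · rintro ⟨x, rfl⟩
          have hx : x ∈ T := by rw [Subgroup.index_eq_one.1 ht1]; exact Subgroup.mem_top x
          exact Subtype.ext hx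
        · rintro rfl
          exact ⟨1, conjIrr_one _⟩
      have hχw := congrFun (clifford χ θ hθ) ⟨w, hwN⟩
      rw [hsingle, Finset.sum_singleton, Pi.smul_apply, smul_eq_mul] at hχw
      have hwj := hval 1
      rw [zpow_one, zpow_one] at hwj
      obtain ⟨l, hl⟩ := exists_linChar_eq θ (hlinN θ)
      have hnorm : ‖(θ : N → ℂ) ⟨w, hwN⟩‖ = 1 := by
        rw [← hl, linChar_apply]
        refine norm_eq_one_of_pow_orderOf (g := (⟨w, hwN⟩ : N)) ?_
        rw [← Units.val_pow_eq_pow_val, ← map_pow, pow_orderOf_eq_one, map_one, Units.val_one]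
      rw [ht1, mul_one] at hnmt
      have hωn : ‖ω‖ = 1 := by
        refine Complex.norm_eq_one_of_pow_eq_one hωp hp.ne_zero
      refine normSq_ne (a := (n : ℝ) - p) (b := (p : ℝ))
        (by rw [sub_pos]; exact_mod_cast hpn) (by exact_mod_cast hp.pos) hωn hω1 ?_
      rw [show (((n : ℝ) - p : ℝ) : ℂ) + ((p : ℝ) : ℂ) * ω = (n : ℂ) - p + p * ω by push_cast; ring,
        ← hwj, hχw, ← hm, norm_mul, hnorm, mul_one, sub_add_cancel, hnmt, Complex.norm_natCast]
    have h3 := Nat.mul_le_mul h1 ht
    omega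
  · -- `D` is abelian
    have hpD : p ∣ D.index := by
      by_contra h
      refine hSD ?_
      have hcop : (Nat.card (S : Subgroup G)).Coprime D.index := by
        obtain ⟨k, hk⟩ := IsPGroup.iff_card.1 S.isPGroup'
        rw [hk]
        exact (hp.coprime_iff_not_dvd.2 h).pow_left k
      intro x hx
      haveI := Subgroup.normalCore_normal T
      rw [← QuotientGroup.eq_one_iff (N := D), ← orderOf_eq_one_iff]
      refine Nat.eq_one_of_dvd_coprimes hcop ?_ ?_
      · exact (orderOf_map_dvd (QuotientGroup.mk' D) x).trans (Subgroup.orderOf_dvd_natCard _ hx)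
      · exact (orderOf_dvd_natCard _).trans (by rw [Subgroup.index_eq_card])
    have hpt : p ≤ T.index := (Nat.Prime.dvd_factorial hp).1 (hpD.trans hDfac)
    have hm1 : m = 1 := by
      by_contra hne
      have := Nat.mul_le_mul (show 2 ≤ m by omega) hpt
      omega
    haveI : Fintype D := Fintype.ofFinite D
    have hresD : IsCharacter D (fun a : D => (χ : G → ℂ) a) :=
      isCharacter_restrict (isCharacter_coe χ) D
    obtain ⟨s, hmem, hs⟩ := exists_eq_sum_mult hresD
    have hdeg1 : ∀ φ ∈ s, charDegree (φ : D → ℂ) = 1 := by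
      intro φ hφ
      obtain ⟨η, hη⟩ := exists_mult_eq_degree (Subgroup.inclusion hND) (fun a => by
        rw [Subgroup.mem_center_iff]
        exact fun g => Subtype.ext (hcentral g g.2 a a.2)) φ
      have h1 := mult_mul_mult_le_restrict (Subgroup.inclusion hND) hresD φ η
      rw [hη] at h1
      change _ ≤ mult (fun a : N => (χ : G → ℂ) a) η at h1
      have h2 := charDegree_pos φ
      have h3 := Nat.le_mul_of_pos_left (charDegree (φ : D → ℂ))
        (Nat.pos_of_ne_zero ((hmem φ).1 hφ))
      rw [horbit η (by omega), hm1] at h1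
      omega
    have hDab : commutator D = ⊥ := by
      rw [Subgroup.eq_bot_iff_forall]
      intro x hx
      refine Subtype.ext (hfaith _ ?_)
      have e1 := congrFun hs x
      have e2 := congrFun hs 1
      simp only [Finset.sum_apply, Pi.smul_apply, smul_eq_mul, OneMemClass.coe_one] at e1 e2
      rw [e1, e2]
      refine Finset.sum_congr rfl fun φ hφ => ?_
      obtain ⟨l, rfl⟩ := exists_linChar_eq φ ((charDegree_eq_one_iff φ).mp (hdeg1 φ hφ))
      rw [linChar_apply, linChar_apply, MonoidHom.mem_ker.1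
        (Abelianization.commutator_subset_ker l hx), map_one]
    haveI : IsMulCommutative D := ⟨⟨fun a b => by
      have := (Subgroup.eq_bot_iff_forall _).1 hDab ⁅a, b⁆
        (Subgroup.commutator_mem_commutator (Subgroup.mem_top _) (Subgroup.mem_top _))
      exact commutatorElement_eq_one_iff_mul_comm.1 this⟩⟩
    obtain ⟨R⟩ : Nonempty (Sylow p D) := inferInstance
    haveI : (R : Subgroup D).Normal := Subgroup.Normal.mk fun r hr g => by
      rwa [mul_comm' g r, mul_inv_cancel_right]
    haveI := R.characteristic_of_normal ‹_›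
    haveI := Subgroup.normalCore_normal T
    haveI hRn : ((R : Subgroup D).map D.subtype).Normal := inferInstance
    have hle : (R : Subgroup D).map D.subtype ≤ pCore p G :=
      Constrained.le_pCore hRn (R.isPGroup'.map _)
    intro hsq
    have h1 := hsq.trans (Subgroup.index_dvd_of_le hle)
    rw [Subgroup.index_map_subtype] at h1
    have h2 : (p ^ 2).Coprime (R : Subgroup D).index :=
      (hp.coprime_iff_not_dvd.2 R.not_dvd_index).pow_left 2
    exact not_sq_dvd_factorial hp (by
      have := Nat.le_mul_of_pos_left T.index hm0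
      omega) ((h2.dvd_of_dvd_mul_left h1).trans hDfac)

end CfsgLib.DegreeLtTwoP
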